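import Cfsg.Agent.ThR.E8a
import Cfsg.Agent.ThR.E8d
import Cfsg.Agent.Chev.CertE8

/-! The generators of the Thompson group are words in root elements. -/

set_option autoImplicit false
set_option maxRecDepth 1000000
set_option maxHeartbeats 400000
set_option Elab.async false

namespace CF.ThR
open CF.Comp CF.Dce CF.Dce.Th CF.Chev

theorem xc4 : xchk tabE8 248 XW4 (sp PB0) (P.mulR (nth 0 X 9) (sp PB0)) = true := by
  decide +kernel
theorem xc5 : xchk tabE8 248 XW5 (sp PB0) (P.mulR (nth 0 X 11) (sp PB0)) = true := by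
  decide +kernel
theorem xc6 : xchk tabE8 248 XW6 (sp PB0) (P.mulR (nth 0 X 13) (sp PB0)) = true := by
  decide +kernel
theorem xc7 : xchk tabE8 248 XW7 (sp PB0) (P.mulR (nth 0 X 15) (sp PB0)) = true := by
  decide +kernel

end CF.ThR
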