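import Cfsg.Agent.ThR.E8b
import Cfsg.Agent.ThR.E8c
import Cfsg.Agent.Dce.Th.Main

/-! The Thompson group is a subgroup of `E₈(3)`. -/

set_option autoImplicit false
set_option maxRecDepth 1000000

namespace CF.ThR
open CF.Comp CF.Dce CF.Dce.Th CF.Chev Cfsg Cfsg.Lie

/-- the adjoint representation -/
noncomputable def ad8 : chevE8.group (ZMod 3) →* GL (Fin 248) (ZMod 3) := adR chevE8

theorem ad8_inj : Function.Injective ad8 := adR_inj

theorem ad8_x : ∀ r < tabE8.n, ∀ t, ∃ g, (ad8 g).1 = xM tabE8 248 r t := fun _ h t => exists_xM certE8 h t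

theorem conj_mem {U : GL (Fin 248) (ZMod 3)} {A : ℕ} (hU : IsM 3 5 248 A U) {i j : ℕ} (hi : i < 8)
    (hj : j = 2 * i + 1) {w : List (ℕ × ℤ)} (h : xchk tabE8 248 w A (P.mulR (nth 0 X j) A) = true) :
    U⁻¹ * ι (b i) * U ∈ ad8.range := by
  obtain ⟨g, hg⟩ := xchk_spec (n := 248) certE8.good rfl (by decide) ad8_x hU.1 h
  have h1 := MP.isM_mul (b_isM j (by omega)) hU
  have h2 : evL b j = b i := by simp [evL, hj]
  refine ⟨g, ?_⟩
  rw [mul_assoc, eq_inv_mul_iff_mul_eq]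
  exact Units.ext (by rw [Units.val_mul, ← hU.2, ← hg, h1.2, h2])

theorem exists_inj_of_conj {G H M : Type*} [Group G] [Group H] [Group M] {ι : G →* M} {ρ : H →* M}
    (h1 : Function.Injective ι) (h2 : Function.Injective ρ) {b : ℕ → G} {m : ℕ} (h3 : ∀ i, m ≤ i → b i = 1)
    (h4 : clo b (gensW m) = ⊤) {U : M} (h5 : ∀ i < m, U⁻¹ * ι (b i) * U ∈ ρ.range) :
    ∃ f : G →* H, Function.Injective f := by
  let φ : G →* M := (MulAut.conj U⁻¹).toMonoidHom.comp ι
  have h6 : ∀ x, φ x ∈ ρ.range := fun x => by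
    have : x ∈ clo b (gensW m) := h4 ▸ Subgroup.mem_top x
    rw [clo_gensW h3] at this
    refine (Subgroup.closure_le (ρ.range.comap φ)).2 ?_ this
    rintro _ ⟨i, rfl⟩
    rcases lt_or_ge i m with h | h
    · simpa [φ] using h5 i h
    · rw [h3 i h]
      exact one_mem _
  refine ⟨(MonoidHom.ofInjective h2).symm.toMonoidHom.comp (φ.codRestrict _ h6), ?_⟩
  exact fun x y e => h1 ((MulAut.conj U⁻¹).injective
    (Subtype.ext_iff.1 ((MonoidHom.ofInjective h2).symm.injective e)))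

theorem isM_of_let {A B : ℕ} (h : letOK P.mulR P.one P.ok (nth 0 [P.one, A, B]) 1 = true) :
    ∃ U, IsM 3 5 248 A U := ⟨_, MP.isM_evL h (x := 1) (by decide)⟩

theorem exists_L_E8 : ∃ f : L →* chevE8.group (ZMod 3), Function.Injective f := by
  obtain ⟨U, hU⟩ := isM_of_let letPB
  refine exists_inj_of_conj ι_inj ad8_inj b_one b_top (U := U) fun i hi => ?_
  interval_cases i
  exacts [conj_mem hU hi rfl xc0, conj_mem hU hi rfl xc1, conj_mem hU hi rfl xc2, conj_mem hU hi rfl xc3,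
    conj_mem hU hi rfl xc4, conj_mem hU hi rfl xc5, conj_mem hU hi rfl xc6, conj_mem hU hi rfl xc7]

theorem exists_Th_E8 : ∃ f : Spor.Th →* chevE8.group (ZMod 3), Function.Injective f :=
  have ⟨f, hf⟩ := exists_L_E8
  ⟨f.comp eT.toMonoidHom, hf.comp eT.injective⟩

end CF.ThR
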