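import Cfsg.Agent.Dce.Ext
import Cfsg.Agent.BN.WordChk

/-! Packed matrices over the field with three elements multiplied by root elements. -/

set_option autoImplicit false

namespace CF.ThR
open CF.Comp CF.Dce CF.Chev Cfsg.Lie Finset

/-- add multiples of columns of `A` to the column `k` -/
noncomputable def addC (cm qm A k : ℕ) (L : SV) : ℕ → ℕ :=
  List.rec (motive := fun _ => ℕ → ℕ) (fun r => r) (fun x _ ih r =>
    Comp.force (Nat.add r (Nat.mul (Nat.land (Nat.shiftRight A (Nat.mul (nat_lit 5) x.1)) cm)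
      (Nat.shiftLeft (Int.toNat (Int.emod x.2 3)) (Nat.mul (nat_lit 5) k)))) fun y =>
        ih (red (nat_lit 3) (nat_lit 3) (nat_lit 3) qm y)) L

/-- the product with a root element -/
noncomputable def xmul (T : Chev.Tab) (cm qm F n r : ℕ) (t : ℤ) (A : ℕ) : ℕ :=
  Nat.rec (motive := fun _ => ℕ) (Nat.land A F)
    (fun k acc => addC cm qm A k (T.xcol r t k).tail acc) n

/-- the product with a word in root elements -/
noncomputable def xw (T : Chev.Tab) (cm qm F n : ℕ) (w : List (ℕ × ℤ)) : ℕ → ℕ :=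
  List.rec (motive := fun _ => ℕ → ℕ) (fun A => A)
    (fun x _ ih A => Comp.force (xmul T cm qm F n x.1 x.2 A) ih) w

/-- the check -/
noncomputable def xchk (T : Chev.Tab) (n : ℕ) (w : List (ℕ × ℤ)) (A B : ℕ) : Bool :=
  Comp.force (Nat.mul (full (nat_lit 5)) (repl (Nat.mul (nat_lit 5) n) n)) fun cm =>
    Comp.force (Nat.mul (full (nat_lit 2)) (repl (nat_lit 5) (Nat.mul n n))) fun qm =>
      Comp.force (full (Nat.mul (nat_lit 5) (Nat.mul n n))) fun F => Comp.force A fun A =>
        Bool.rec false (Nat.beq (xw T cm qm F n w A) B)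
          (lall (fun x => Nat.ble (Nat.succ x) T.n) (w.map Prod.fst))

variable {n A k : ℕ}

theorem pk_single (c : ℕ) (hk : k < n) :
    c <<< (5 * k) = pk 5 n fun j => if j = k then c else 0 := by
  rw [pk, sum_eq_single k (fun j _ h => by simp [h]) (fun h => absurd (mem_range.2 hk) h),
    if_pos rfl, Nat.shiftLeft_eq]

theorem m3_lt (z : ℤ) : Int.toNat (Int.emod z 3) < 3 := by
  have : Int.emod z 3 = z % 3 := rfl
  omega

theorem m3_cast (z : ℤ) : ((Int.toNat (Int.emod z 3) : ℕ) : ZMod 3) = z := by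
  have h : ((Int.toNat (Int.emod z 3) : ℕ) : ℤ) = z % (3 : ℕ) := by
    have : Int.emod z 3 = z % 3 := rfl
    omega
  rw [← Int.cast_natCast, h, ZMod.intCast_mod]

theorem addC_cons (cm qm A k : ℕ) (x : ℕ × ℤ) (L : SV) (r : ℕ) : addC cm qm A k (x :: L) r =
    addC cm qm A k L (red 3 3 3 qm (r + (A >>> (5 * x.1) &&& cm) * (x.2.emod 3).toNat <<< (5 * k))) :=
  Comp.force_eq (r + (A >>> (5 * x.1) &&& cm) * (x.2.emod 3).toNat <<< (5 * k))
    fun y => addC cm qm A k L (red 3 3 3 qm y)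

theorem addC_spec (hA : Good 3 5 n A) (hk : k < n) {L : SV} (hL : Valid n L) {f : ℕ → ℕ}
    (hf : ∀ t < n * n, f t < 3) : ∃ g : ℕ → ℕ, (∀ t < n * n, g t < 3) ∧
      addC (full 5 * repl (5 * n) n) (full 2 * repl 5 (n * n)) A k L (pk 5 (n * n) f) = pk 5 (n * n) g ∧
      ∀ t < n * n, (g t : ZMod 3) = f t + if t % n = k then
        (L.map fun x => (fld 5 A (n * (t / n) + x.1) : ZMod 3) * x.2).sum else 0 := by
  have hn : 0 < n := by omega
  induction L generalizing f with
  | nil => exact ⟨f, hf, rfl, fun t _ => by simp⟩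
  | cons x L ih =>
    obtain ⟨hx, hL⟩ := valid_cons.1 hL
    obtain ⟨g, h1, h2, h3⟩ := ih hL (f := fun t => (f t + fld 5 A (n * (t / n) + x.1) *
      if t % n = k then Int.toNat (Int.emod x.2 3) else 0) % 3) fun t _ => Nat.mod_lt _ (by decide)
    refine ⟨g, h1, ?_, fun t ht => ?_⟩
    · rw [← h2, ← red_pk (p := 3) (c := 3) (s := 3) (B := 6) (by decide) (by decide) (by decide) (by decide)
        fun t ht => ?_, ← pk_add, ← pk_outer 5 hn (fun i => fld 5 A (n * i + x.1))
          fun j => if j = k then Int.toNat (Int.emod x.2 3) else 0, ← col_eq (by decide) hn, ← pk_single _ hk]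
      · exact addC_cons ..
      · have h4 := hA _ (idx_lt (Nat.div_lt_of_lt_mul ht) hx)
        have h5 := hf t ht
        have h6 := m3_lt x.2
        have : fld 5 A (n * (t / n) + x.1) * (if t % n = k then Int.toNat (Int.emod x.2 3) else 0) ≤ 2 * 2 :=
          Nat.mul_le_mul (by omega) (by split_ifs <;> omega)
        omega
    · rw [h3 t ht, ZMod.natCast_mod]
      split_ifs
      · rw [List.map_cons, List.sum_cons, Nat.cast_add, Nat.cast_mul, m3_cast, add_assoc]
      · simp

theorem sum_coef {L : SV} (hL : Valid n L) (φ : ℕ → ZMod 3) :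
    (L.map fun x => φ x.1 * x.2).sum = ∑ a ∈ range n, φ a * (coef L a : ℤ) := by
  induction L with
  | nil => simp
  | cons x L ih =>
    obtain ⟨hx, hL⟩ := valid_cons.1 hL
    simp only [List.map_cons, List.sum_cons, ih hL, coef_cons, Int.cast_add, mul_add, sum_add_distrib]
    congr 1
    rw [sum_eq_single x.1 (fun j _ h => by simp [h.symm]) (fun h => absurd (mem_range.2 hx) h), if_pos rfl]

variable {T : Chev.Tab}

theorem xcol_tail (r : ℕ) (t : ℤ) (k : ℕ) : T.xcol r t k = (k, 1) :: (T.xcol r t k).tail := by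
  rw [Tab.xcol_eq]
  split_ifs with h1 h2
  · rfl
  · rfl
  · rfl
  · rfl

/-- the matrix of a root element -/
noncomputable def xM (T : Chev.Tab) (n r : ℕ) (t : ℤ) : Matrix (Fin n) (Fin n) (ZMod 3) :=
  Matrix.of fun a k => (coef (T.xcol r t k) a : ℤ)

theorem xmul_spec (hT : T.Good) (hn : n = T.n + T.l) (h0 : 0 < n) (hA : Good 3 5 n A) {r : ℕ} (hr : r < T.n)
    (t : ℤ) : ∃ B, xmul T (full 5 * repl (5 * n) n) (full 2 * repl 5 (n * n)) (full (5 * (n * n))) n r t A = B ∧
      Good 3 5 n B ∧ toM 3 5 n B = toM 3 5 n A * xM T n r t := by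
  have hv : ∀ k < n, Valid n (T.xcol r t k) := fun k hk => hn ▸ Tab.valid_xcol hT hr t (hn ▸ hk)
  have key : ∀ m ≤ n, ∃ g : ℕ → ℕ, (∀ s < n * n, g s < 3) ∧ xmul T (full 5 * repl (5 * n) n)
      (full 2 * repl 5 (n * n)) (full (5 * (n * n))) m r t A = pk 5 (n * n) g ∧ ∀ s < n * n,
        (g s : ZMod 3) = fld 5 A s + if s % n < m then ((T.xcol r t (s % n)).tail.map
          fun x => (fld 5 A (n * (s / n) + x.1) : ZMod 3) * x.2).sum else 0 := by
    intro m hm
    induction m with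
    | zero =>
      refine ⟨fld 5 A, hA, ?_, fun s _ => by simp⟩
      change A &&& _ = _
      rw [full_mul (by decide), land_pk (by decide) fun _ _ => by decide]
      exact pk_congr fun k _ => by rw [Nat.and_two_pow_sub_one_eq_mod, Nat.mod_eq_of_lt (fld_lt _ _ _)]
    | succ m ih =>
      obtain ⟨f, h1, h2, h3⟩ := ih (by omega)
      obtain ⟨g, h4, h5, h6⟩ := addC_spec hA (k := m) hm
        (valid_cons.1 (xcol_tail r t m ▸ hv m hm)).2 h1
      refine ⟨g, h4, ?_, fun s hs => ?_⟩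
      · rw [← h5, ← h2]
        rfl
      · rw [h6 s hs, h3 s hs, add_assoc]
        congr 1
        rcases lt_trichotomy (s % n) m with h | h | h
        · rw [if_pos h, if_neg h.ne, if_pos (by omega), add_zero]
        · rw [if_neg (by omega), if_pos h, if_pos (by omega), zero_add, h]
        · rw [if_neg (by omega), if_neg h.ne', if_neg (by omega), add_zero]
  obtain ⟨g, h1, h2, h3⟩ := key n le_rfl
  have h4 : ∀ s < n * n, g s < 2 ^ 5 := fun s hs => (h1 s hs).trans (by decide)
  refine ⟨_, h2, fun s hs => by rw [fld_pk (by decide) h4 hs]; exact h1 s hs, ?_⟩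
  ext i j
  have hs := idx_lt i.2 j.2
  have e1 : (n * i + j) % n = j := by rw [Nat.mul_add_mod, Nat.mod_eq_of_lt j.2]
  have e2 : (n * i + j) / n = i := by
    rw [Nat.mul_add_div h0, Nat.div_eq_of_lt j.2, add_zero]
  have := sum_coef (hv j j.2) fun a => (fld 5 A (n * i + a) : ZMod 3)
  rw [xcol_tail, List.map_cons, List.sum_cons, ← xcol_tail] at this
  rw [Matrix.mul_apply, toM, Matrix.of_apply, fld_pk (by decide) h4 hs, h3 _ hs, e1, e2, if_pos j.2]
  simp only [toM, xM, Matrix.of_apply]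
  rw [← sum_range fun a => (fld 5 A (n * i + a) : ZMod 3) * (coef (T.xcol r t j) a : ℤ), ← this]
  simp

variable {D : ChevalleyDatum}

/-- the numbering of the basis -/
def cdE (l m : ℕ) : Fin l ⊕ Fin m ≃ Fin (m + l) := (Equiv.sumComm _ _).trans finSumFinEquiv

theorem cdE_val {l m : ℕ} (a : Fin l ⊕ Fin m) : (cdE l m a : ℕ) = cd a := by
  rcases a with a | a <;> simp [cdE]

/-- the adjoint representation -/
noncomputable def adR (D : ChevalleyDatum) : D.group (ZMod 3) →* GL (Fin (D.nroots + D.rank)) (ZMod 3) :=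
  (Units.map (Matrix.reindexAlgEquiv (ZMod 3) (ZMod 3) (cdE D.rank D.nroots)).toMulEquiv.toMonoidHom).comp
    (D.group (ZMod 3)).subtype

theorem adR_inj : Function.Injective (adR D) :=
  (Units.map_injective (MulEquiv.injective _)).comp Subtype.val_injective

theorem exists_xM (c : Tab.Cert D T) {r : ℕ} (hr : r < T.n) (t : ℤ) :
    ∃ g, (adR D g).1 = xM T (D.nroots + D.rank) r t := by
  let w : List (Fin D.nroots × ℤ) := [(⟨r, c.hn ▸ hr⟩, t)]
  refine ⟨(c.isLink.gpRep (ZMod 3)).word (w.map (Prod.map id ((↑) : ℤ → ZMod 3))), ?_⟩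
  have e := congrArg Units.val ((c.isLink.isAdHom_gpRep (ZMod 3)).map_word
    (w.map (Prod.map id ((↑) : ℤ → ZMod 3))))
  have e' := c.basis.wordM_map (Int.castRingHom (ZMod 3)) w
  simp only [ChevBasis.val_adPre_word, Subgroup.coe_subtype, Int.coe_castRingHom] at e e'
  ext a b
  obtain ⟨a, rfl⟩ := (cdE _ _).surjective a
  obtain ⟨b, rfl⟩ := (cdE _ _).surjective b
  change Matrix.reindex _ _ (Units.val (Subtype.val _)) _ _ = _
  rw [e, ← e', Matrix.reindex_apply, Matrix.submatrix_apply, Equiv.symm_apply_apply, Equiv.symm_apply_apply,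
    RingHom.mapMatrix_apply, Matrix.map_apply, BN.wordM_eq_coef, xM, Matrix.of_apply, cdE_val, cdE_val]
  simp [w, Tab.xword_cons, coef_norm, coef_bind, Tab.xword]

theorem xchk_spec {G : Type*} [Group G] {ρ : G →* GL (Fin n) (ZMod 3)} (hT : T.Good) (hn : n = T.n + T.l)
    (h0 : 0 < n) (hρ : ∀ r < T.n, ∀ t, ∃ g, (ρ g).1 = xM T n r t) {w : List (ℕ × ℤ)} {B : ℕ}
    (hA : Good 3 5 n A) (h : xchk T n w A B = true) : ∃ g, toM 3 5 n B = toM 3 5 n A * (ρ g).1 := by
  simp only [xchk, Comp.force_eq, brec_and, beq_iff, lall_iff, ble_iff] at h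
  obtain ⟨h1, rfl⟩ := h
  induction w generalizing A with
  | nil => exact ⟨1, by rw [map_one]; exact (mul_one _).symm⟩
  | cons x w ih =>
    have hr : x.1 < T.n := h1 _ List.mem_cons_self
    obtain ⟨B, e, h2, h3⟩ := xmul_spec hT hn h0 hA hr x.2
    obtain ⟨g, hg⟩ := ih h2 fun y hy => h1 y (List.mem_cons_of_mem _ hy)
    obtain ⟨g', hg'⟩ := hρ _ hr x.2
    refine ⟨g' * g, ?_⟩
    rw [map_mul, Units.val_mul, hg', ← mul_assoc, ← h3, ← hg, ← e]
    exact congrArg _ (Comp.force_eq _ _)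

end CF.ThR
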