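import Cfsg.Agent.ThR.E8a
import Cfsg.Agent.ThR.E8d
import Cfsg.Agent.Chev.CertE8

/-! The generators of the Thompson group are words in root elements. -/

set_option autoImplicit false
set_option maxRecDepth 1000000
set_option maxHeartbeats 400000
set_option Elab.async false

namespace CF.ThR
open CF.Comp CF.Dce CF.Dce.Th CF.Chev

theorem xc0 : xchk tabE8 248 XW0 (sp PB0) (P.mulR (nth 0 X 1) (sp PB0)) = true := by
  decide +kernel
theorem xc1 : xchk tabE8 248 XW1 (sp PB0) (P.mulR (nth 0 X 3) (sp PB0)) = true := by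
  decide +kernel
theorem xc2 : xchk tabE8 248 XW2 (sp PB0) (P.mulR (nth 0 X 5) (sp PB0)) = true := by
  decide +kernel
theorem xc3 : xchk tabE8 248 XW3 (sp PB0) (P.mulR (nth 0 X 7) (sp PB0)) = true := by
  decide +kernel
theorem letPB : letOK P.mulR P.one P.ok (nth 0 [P.one, sp PB0, sp PB1]) 1 = true := by
  decide +kernel

end CF.ThR
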